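import Cfsg.Agent.SmallSimple.BrauerTypesSetup
import Cfsg.Agent.SmallSimple.TheoremBCor
import Cfsg.Agent.H607.BP.Final

/-!
Adapted from `SmallSimple.BrauerTypesSetup` and `S0996` (hypothesis `NoForm p n`).
-/

set_option autoImplicit false
set_option linter.unusedSectionVars false
open Cfsg

namespace Cfsg.Agent.H607.BP.Setup

open Subgroup Cfsg.Agent.SmallSimple.SelfCentPrime Cfsg.Agent.H607.BP.Types Cfsg.Agent.H607.BP.Arith
open Cfsg.Agent.SmallSimple.BrauerTypesSetup (not_normal eq_of_commutator_le)
open Cfsg.Agent.SmallSimple.BrauerTypesBasic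

universe u
variable {G : Type u} [Group G] [Finite G] {p : ℕ} [hp : Fact p.Prime] {z : G}

/-- The numerical setup. -/
theorem setup (hperf : commutator G = ⊤) (hz : orderOf z = p)
    (hC : centralizer ({z} : Set G) = zpowers z)
    (hn : ∀ n, Nat.card (Sylow p G) = 1 + n * p → NoForm p n) :
    ∃ (P : Sylow p G) (n e t : ℕ), (P : Subgroup G) = zpowers z ∧
      Nat.card P = p ∧
      centralizer (P : Set G) = P ∧
      (centralizer (P : Set G)).relIndex (normalizer (P : Set G)) = e ∧
      n * p + 1 = Nat.card (Sylow p G) ∧ p ≠ 2 ∧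
      Hyp p n e t (P : Subgroup G) (normalizer (P : Set G)) := by
  obtain ⟨P, hP⟩ := exists_sylow_eq_zpowers hz hC
  obtain ⟨n, t, -, -, hnS, hGt⟩ := Cfsg.Agent.S0995.result hperf p z hz hC
  have hcP : Nat.card P = p := card_sylow_eq hz hC P
  have hcent : centralizer (P : Set G) = P := by
    have h1 : centralizer ((zpowers z : Subgroup G) : Set G) = zpowers z := by
      rw [centralizer_zpowers, hC]
    rw [← hP] at h1
    exact h1
  have hPN : (P : Subgroup G) ≤ normalizer (P : Set G) := le_normalizer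
  have hcN : Nat.card (normalizer (P : Set G)) =
      p * (centralizer (P : Set G)).relIndex (normalizer (P : Set G)) := by
    rw [hcent]
    have h1 := relIndex_mul_relIndex ⊥ (P : Subgroup G) (normalizer (P : Set G)) bot_le hPN
    have h2 : Nat.card (P : Subgroup G) = p := hcP
    rw [relIndex_bot_left, relIndex_bot_left, h2] at h1
    exact h1.symm
  set e := (centralizer (P : Set G)).relIndex (normalizer (P : Set G)) with he
  have hidx : Nat.card (Sylow p G) = (normalizer (P : Set G)).index :=
    P.card_eq_index_normalizer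
  have hcG : Nat.card G = p * e * (1 + n * p) := by
    have h1 := (normalizer (P : Set G)).card_mul_index
    rw [← hidx, hcN, hnS] at h1
    exact h1.symm
  have hp0 := hp.out.pos
  have het : e * t = p - 1 := by
    rw [hcG] at hGt
    have h2 : (p * (1 + n * p)) * (e * t) = (p * (1 + n * p)) * (p - 1) := by
      linarith [hGt]
    exact Nat.eq_of_mul_eq_mul_left (Nat.mul_pos hp0 (by omega)) h2
  have hmemP : ∀ y ∈ normalizer (P : Set G), orderOf y = p → y ∈ (P : Subgroup G) := by
    intro y hy hyo
    have hpg : IsPGroup p (zpowers y) := by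
      apply IsPGroup.of_card (n := 1)
      rw [Nat.card_zpowers, hyo, pow_one]
    have h1 := IsPGroup.inf_normalizer_sylow hpg P
    have h2 : y ∈ zpowers y ⊓ normalizer (P : Set G) := ⟨mem_zpowers y, hy⟩
    rw [h1] at h2
    exact h2.2
  have hordP : ∀ y ∈ (P : Subgroup G), y ≠ 1 → orderOf y = p := by
    intro y hy hy1
    have h1 : orderOf y ∣ p := by
      have := Subgroup.orderOf_dvd_natCard (P : Subgroup G) hy
      rwa [show Nat.card (P : Subgroup G) = p from hcP] at this
    rcases (Nat.dvd_prime hp.out).1 h1 with h2 | h2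
    · exact absurd (orderOf_eq_one_iff.1 h2) hy1
    · exact h2
  have hzP : z ∈ (P : Subgroup G) := hP ▸ mem_zpowers z
  -- `n ≥ 1`
  have hn1 : 1 ≤ n := by
    by_contra h
    have hn0 : n = 0 := by omega
    rw [hn0, zero_mul, add_zero] at hnS
    rw [hidx, Subgroup.index_eq_one] at hnS
    refine not_normal hperf hz hC ?_
    intro g
    have hg : g ∈ normalizer (P : Set G) := hnS ▸ mem_top g
    rw [← hP]
    exact (mem_normalizer_iff.1 hg z).1 hzP
  have hperf' : ∀ f : G →* ℂˣ, f = 1 := by
    intro f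
    have h1 := Abelianization.commutator_subset_ker f
    rw [hperf] at h1
    ext g
    have := h1 (mem_top g)
    rw [MonoidHom.mem_ker] at this
    rw [this]
    rfl
  -- `e ≥ 2`
  have he2 : 2 ≤ e := by
    by_contra h
    have he0 : e ≠ 0 := by
      intro h0
      rw [h0, mul_zero, zero_mul] at hcG
      exact Nat.card_pos.ne' hcG
    have he1 : e = 1 := by omega
    have h1 : normalizer (P : Set G) ≤ centralizer (P : Set G) := by
      rw [← Subgroup.relIndex_eq_one, ← he, he1]
    have h2 := MonoidHom.ker_transferSylow_isComplement' P h1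
    have h3 : commutator G ≤ (MonoidHom.transferSylow P h1).ker := by
      have hcommP : ∀ a b : P, a * b = b * a := by
        have : IsMulCommutative (P : Subgroup G) := by
          rw [hP]; infer_instance
        intro a b
        exact mul_comm' a b
      rw [_root_.commutator_def, commutator_le]
      intro a _ b _
      rw [MonoidHom.mem_ker, commutatorElement_def]
      simp only [map_mul, map_inv]
      rw [hcommP (MonoidHom.transferSylow P h1 a) (MonoidHom.transferSylow P h1 b)]
      group
    rw [hperf, top_le_iff] at h3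
    rw [h3] at h2
    have h4 : (P : Subgroup G) = ⊥ := by
      have := h2.disjoint
      rwa [top_disjoint] at this
    rw [h4, Subgroup.mem_bot] at hzP
    rw [hzP, orderOf_one] at hz
    exact hp.out.one_lt.ne hz
  have hp2 : p ≠ 2 := by
    rintro rfl
    have : e ∣ 1 := Dvd.intro t het
    have := Nat.le_of_dvd (by norm_num) this
    omega
  refine ⟨P, n, e, t, hP, hcP, hcent, rfl, by rw [hnS, add_comm], hp2, ?_⟩
  refine ⟨hp.out, hPN, hcP, hcN, hcG, het, hn1, ?_, he2, ?_, hmemP, hperf'⟩
  · exact hn n (by rw [hnS])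
  · intro y hy hy1 x hx
    have hyo := hordP y hy hy1
    have hyx : orderOf (x⁻¹ * y * x) = p := by
      rw [← hyo]
      have h7 : SemiconjBy x⁻¹ y (x⁻¹ * y * x) := by
        unfold SemiconjBy; group
      exact (SemiconjBy.orderOf_eq _ h7).symm
    have h1 := hmemP _ hx hyx
    -- `P = ⟨y⟩ = ⟨x⁻¹ y x⟩`
    have hy' : y ∈ zpowers z := hP ▸ hy
    have e1 : zpowers y = (P : Subgroup G) := by
      rw [hP]; exact zpowers_eq_of_mem hz hy' hy1
    have hx1 : x⁻¹ * y * x ≠ 1 := by
      intro h
      rw [h, orderOf_one] at hyx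
      exact hp.out.one_lt.ne hyx
    have e2 : zpowers (x⁻¹ * y * x) = (P : Subgroup G) := by
      rw [hP]; exact zpowers_eq_of_mem hz (hP ▸ h1) hx1
    have e3 : ∀ w : G, w ∈ (P : Subgroup G) → x⁻¹ * w * x ∈ (P : Subgroup G) := by
      intro w hw
      rw [← e1] at hw
      obtain ⟨i, rfl⟩ := mem_zpowers_iff.1 hw
      have := conj_zpow (i := i) (a := x⁻¹) (b := y)
      rw [inv_inv] at this
      rw [← this, ← e2]
      exact zpow_mem (mem_zpowers _) i
    have e4 : ∀ w : G, w ∈ (P : Subgroup G) → x * w * x⁻¹ ∈ (P : Subgroup G) := by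
      intro w hw
      rw [← e2] at hw
      obtain ⟨i, rfl⟩ := mem_zpowers_iff.1 hw
      have h5 : x * (x⁻¹ * y * x) ^ i * x⁻¹ = y ^ i := by
        have := conj_zpow (i := i) (a := x) (b := x⁻¹ * y * x)
        rw [← this]
        congr 1
        group
      rw [h5, ← e1]
      exact zpow_mem (mem_zpowers _) i
    refine mem_normalizer_iff.2 ?_
    intro w
    constructor
    · exact e4 w
    · intro hw
      have := e3 _ hw
      have h6 : x⁻¹ * (x * w * x⁻¹) * x = w := by group
      rwa [h6] at this

/-- Self-centralizing Sylow subgroups of prime order, `n` not of the form. -/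
theorem selfCent (hperf : commutator G = ⊤) (hz : orderOf z = p)
    (hC : centralizer ({z} : Set G) = zpowers z)
    (hn : ∀ n, Nat.card (Sylow p G) = 1 + n * p → NoForm p n) :
    (∃ (F : Type) (_ : Field F) (_ : Fintype F), Fintype.card F = p ∧ 3 < p ∧
      Nonempty (G ≃* Matrix.ProjectiveSpecialLinearGroup (Fin 2) F)) ∨
    (∃ (m : ℕ) (F : Type) (_ : Field F) (_ : Fintype F), Fintype.card F = 2 ^ m ∧
      p = 2 ^ m + 1 ∧ 3 < p ∧ Nonempty (G ≃* Matrix.ProjectiveSpecialLinearGroup (Fin 2) F)) := by
  obtain ⟨P, n, e, t, -, hcP, hcent, he, hnS, hp2, H⟩ := setup hperf hz hC hn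
  obtain ⟨NE, X, ε, d, S, h1, h2, h3, h4, h5, ⟨χ₁, h6, h6', h6''⟩, h7, h8, -, h9, h10⟩ :=
    Cfsg.Agent.SmallSimple.TheoremBCor.theoremB_selfCent p hp2 P hcP hcent e t he H.het
  have htriv : χ₁ = triv G := Subtype.ext h6'
  rw [htriv] at h6 h6''
  exact Final.final hperf hz hC P hcP hcent hnS H
    { NE := NE, X := X, ε := ε, d := d, S := S, disj := h1, card_NE := h2, card_X := h3,
      ε_eq := h4, d_eq := h5, one_mem := ⟨h6, h6''⟩, val_NE := h7,
      card_S := fun Θ hΘ => (h8 Θ hΘ).1
      one_notMem_S := fun Θ hΘ => (h8 Θ hΘ).2.1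
      val_X := fun Θ hΘ => (h8 Θ hΘ).2.2
      rel := h9
      val_rest := fun χ hχ hχ' => (h10 χ hχ hχ').1 }

end Cfsg.Agent.H607.BP.Setup
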