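import Cfsg.Agent.SmallSimple.BrauerTypes
import Cfsg.Agent.H607.BP.Arith

/-!
Adapted from `SmallSimple.BrauerTypes`: the hypothesis `2 n < p + 3` is replaced by `NoForm p n`.
-/

set_option autoImplicit false
set_option linter.unusedSectionVars false
open Cfsg
open scoped ComplexConjugate

namespace Cfsg.Agent.H607.BP.Types

open Cfsg.Agent.Characters.Core Cfsg.Agent.SmallSimple.BrauerTypesBasic
  Cfsg.Agent.H607.BP.Arith
open Cfsg.Agent.SmallSimple.BrauerTypes (BData sum_const_off sum_linear)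

universe u

variable {G : Type u} [Group G]

section
variable [Finite G] {p n e t : ℕ} {P N : Subgroup G} [Fintype P] [Fintype N]

/-- The hypotheses on the group. -/
structure Hyp {G : Type u} [Group G] (p n e t : ℕ) (P N : Subgroup G) : Prop where
  prime : p.Prime
  le : P ≤ N
  cardP : Nat.card P = p
  cardN : Nat.card N = p * e
  cardG : Nat.card G = p * e * (1 + n * p)
  het : e * t = p - 1
  n_pos : 1 ≤ n
  hn : NoForm p n
  he : 2 ≤ e
  ti : ∀ y ∈ P, y ≠ 1 → ∀ x : G, x⁻¹ * y * x ∈ N → x ∈ N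
  memP : ∀ y ∈ N, orderOf y = p → y ∈ P
  perf : ∀ f : G →* ℂˣ, f = 1

variable (H : Hyp p n e t P N) (D : BData p P e t)
include H D

theorem t_pos : 1 ≤ t := by
  rcases Nat.eq_zero_or_pos t with h | h
  · have h1 := H.het
    have h2 := H.prime.two_le
    rw [h] at h1
    omega
  · exact h

theorem m0_NE {χ : IrrCharacter G} (hχ : χ ∈ D.NE) :
    (p : ℤ) * mult P χ = deg χ + (p - 1) * D.ε χ := by
  have h1 := mult_spec P χ
  rw [sum_const_off H.cardP (D.val_NE χ hχ), deg_spec, H.cardP] at h1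
  exact_mod_cast h1.symm

theorem m0_X {χ : IrrCharacter G} (hχ : χ ∈ D.X) :
    (p : ℤ) * mult P χ = deg χ - D.d * e := by
  classical
  have h1 := mult_spec P χ
  rw [← Finset.add_sum_erase _ _ (Finset.mem_univ (1 : P))] at h1
  have h2 : ∑ x ∈ Finset.univ.erase (1 : P), (χ : G → ℂ) x = - D.d * e := by
    have h3 : ∑ x ∈ Finset.univ.erase (1 : P), (χ : G → ℂ) x =
        ∑ x ∈ Finset.univ.erase (1 : P), (D.d : ℂ) * ∑ l ∈ D.S χ, (l x : ℂ) := by
      refine Finset.sum_congr rfl fun x hx => ?_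
      exact D.val_X χ hχ x (Finset.ne_of_mem_erase hx)
    have h4 : ∑ x : P, (D.d : ℂ) * ∑ l ∈ D.S χ, (l x : ℂ) = 0 := by
      rw [← Finset.mul_sum, Finset.sum_comm]
      rw [Finset.sum_eq_zero, mul_zero]
      intro l hl
      exact sum_linear (fun h => D.one_notMem_S χ hχ (h ▸ hl))
    rw [← Finset.add_sum_erase _ _ (Finset.mem_univ (1 : P))] at h4
    rw [h3]
    have h5 : (D.d : ℂ) * ∑ l ∈ D.S χ, ((l 1 : ℂˣ) : ℂ) = D.d * e := by
      simp only [map_one, Units.val_one, Finset.sum_const, nsmul_eq_mul, mul_one]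
      rw [D.card_S χ hχ]
    rw [h5] at h4
    linear_combination h4
  rw [h2, OneMemClass.coe_one, deg_spec, H.cardP] at h1
  have h6 : ((p : ℤ) * mult P χ : ℂ) = deg χ - D.d * e := by
    push_cast
    rw [← h1]; ring
  exact_mod_cast h6

theorem m0_rest {χ : IrrCharacter G} (h1 : χ ∉ D.NE) (h2 : χ ∉ D.X) :
    p * mult P χ = deg χ := by
  have h3 := mult_spec P χ
  rw [sum_const_off H.cardP (D.val_rest χ h1 h2), deg_spec, H.cardP, mul_zero, add_zero] at h3
  exact_mod_cast h3.symm

theorem deg_sq_le (χ : IrrCharacter G) : deg χ * deg χ ≤ p * e * (1 + n * p) := by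
  have := finite_irr (G := G)
  have := Fintype.ofFinite (IrrCharacter G)
  rw [← H.cardG, ← sum_deg_sq (G := G), ← sq]
  exact Finset.single_le_sum (f := fun χ : IrrCharacter G => deg χ ^ 2)
    (fun _ _ => Nat.zero_le _) (Finset.mem_univ χ)

theorem deg_dvd' {χ : IrrCharacter G} (h : ¬ p ∣ deg χ) : deg χ ∣ e * (1 + n * p) := by
  have h1 := deg_dvd χ
  rw [H.cardG, mul_assoc] at h1
  exact Nat.Coprime.dvd_of_dvd_mul_left
    ((Nat.Prime.coprime_iff_not_dvd H.prime).mpr h).symm h1

theorem NE_pos {χ : IrrCharacter G} (hχ : χ ∈ D.NE) (hε : D.ε χ = 1) :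
    (χ = triv G ∧ mult P χ = 1) ∨ (deg χ = 1 + n * p ∧ mult P χ = n + 1) := by
  have h1 := m0_NE H D hχ
  rw [hε, mul_one] at h1
  have hp := H.prime.two_le
  have h2 : p * mult P χ + 1 = deg χ + p := by
    have : (p : ℤ) * mult P χ + 1 = deg χ + p := by linarith
    exact_mod_cast this
  have hmod : deg χ % p = 1 := by
    have h3 : (deg χ + p) % p = (p * mult P χ + 1) % p := by rw [h2]
    rw [Nat.add_mod_right, Nat.mul_add_mod] at h3
    rw [h3]; exact Nat.mod_eq_of_lt (by omega)
  have hnd : ¬ p ∣ deg χ := by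
    intro h
    rw [Nat.mod_eq_zero_of_dvd h] at hmod
    exact absurd hmod (by norm_num)
  rcases deg_pos hp H.hn H.het hmod (deg_dvd' H D hnd) with h | h
  · left
    refine ⟨eq_triv_of_deg H.perf χ h, ?_⟩
    rw [h] at h2
    have h3 : p * mult P χ = p * 1 := by omega
    exact Nat.eq_of_mul_eq_mul_left (by omega) h3
  · right
    refine ⟨h, ?_⟩
    rw [h] at h2
    have h3 : p * mult P χ = p * (n + 1) := by
      have : 1 + n * p + p = p * (n + 1) + 1 := by ring
      omega
    exact Nat.eq_of_mul_eq_mul_left (by omega) h3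

theorem NE_neg {χ : IrrCharacter G} (hχ : χ ∈ D.NE) (hε : D.ε χ = -1) :
    deg χ = p - 1 ∧ mult P χ = 0 := by
  have h1 := m0_NE H D hχ
  rw [hε] at h1
  have hp := H.prime.two_le
  have h2 : p * mult P χ + p = deg χ + 1 := by
    have : (p : ℤ) * mult P χ + p = deg χ + 1 := by linarith
    exact_mod_cast this
  have hmod : (deg χ + 1) % p = 0 := by
    rw [← h2]; simp
  have hnd : ¬ p ∣ deg χ := by
    intro h
    have h3 : p ∣ 1 := (Nat.dvd_add_right h).mp (Nat.dvd_of_mod_eq_zero hmod)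
    have := Nat.le_of_dvd (by norm_num) h3
    omega
  have h4 := deg_neg hp H.hn H.n_pos (by have := H.he; omega) H.het hmod (deg_dvd' H D hnd)
    (deg_sq_le H D χ)
  refine ⟨h4, ?_⟩
  rw [h4] at h2
  have h5 : p * mult P χ = p * 0 := by omega
  exact Nat.eq_of_mul_eq_mul_left (by omega) h5

theorem e_lt : e < p := by
  have h1 := H.het
  have h2 := t_pos H D
  have h3 := H.prime.two_le
  have h4 : e ≤ e * t := Nat.le_mul_of_pos_right _ h2
  omega

theorem X_pos (hd : D.d = 1) {χ : IrrCharacter G} (hχ : χ ∈ D.X) :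
    deg χ = e ∧ mult P χ = 0 := by
  have h1 := m0_X H D hχ
  rw [hd, one_mul] at h1
  have hp := H.prime.two_le
  have h2 : deg χ = p * mult P χ + e := by
    have : (deg χ : ℤ) = p * mult P χ + e := by linarith
    exact_mod_cast this
  have he := H.he
  have hep := e_lt H D
  have hnd : ¬ p ∣ deg χ := by
    rw [h2]
    intro h
    have h3 := (Nat.dvd_add_right (dvd_mul_right p _)).mp h
    have := Nat.le_of_dvd (by omega) h3
    omega
  exact exc_pos hp H.hn H.n_pos (by omega) H.het h2 (deg_dvd' H D hnd) (deg_sq_le H D χ)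

theorem X_neg (hd : D.d = -1) {χ : IrrCharacter G} (hχ : χ ∈ D.X) :
    deg χ * t = 1 + n * p ∧ mult P χ * t = n + 1 := by
  have h1 := m0_X H D hχ
  rw [hd] at h1
  have hp := H.prime.two_le
  have h2 : deg χ + e = p * mult P χ := by
    have : (deg χ : ℤ) + e = p * mult P χ := by linarith
    exact_mod_cast this
  have he := H.he
  have hep := e_lt H D
  have hnd : ¬ p ∣ deg χ := by
    intro h
    have h4 : p ∣ deg χ + e := h2 ▸ dvd_mul_right p _
    have h3 := (Nat.dvd_add_right h).mp h4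
    have := Nat.le_of_dvd (by omega) h3
    omega
  have hc1 : deg χ ≠ 1 := by
    intro h
    have h3 := eq_triv_of_deg H.perf χ h
    exact Finset.disjoint_left.mp D.disj D.one_mem.1 (h3 ▸ hχ)
  exact exc_neg hp H.hn H.het hc1 h2 (deg_dvd' H D hnd)

end

end Cfsg.Agent.H607.BP.Types
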